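import Cfsg.Agent.Lib.Monster.HeD

/-!
# The centraliser in `Co₁` of a coordinate permutation of order seven, continued
-/

set_option autoImplicit false
set_option maxRecDepth 100000

namespace Cfsg.Lib.Mon.He

open Subgroup MulAction Cfsg.Lib.Leech Cfsg.Lib.ES Cfsg.Spor Cfsg.Lib.Calc Cfsg.Lib.F2

theorem rep : Mathieu.R (Mathieu.mk r) r := (Mathieu.cls24.rep (_, 42) (by decide +kernel)).2

/-- the permutation -/
noncomputable def x : Co1 := px (Mathieu.mk r)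

theorem hx : LRep 24 code2 x X := lrep_px rep X_ok

theorem ordM : orderOf (Mathieu.mk r) = 7 := by rw [rep.orderOf_eq (by decide +kernel)]; decide +kernel

theorem ord : orderOf x = 7 := (orderOf_injective px px_injective _).trans ordM

theorem x_e0 : x • e0 = e0 := px_mem _

theorem hG : ∀ S ∈ H :: C :: L.map Prod.fst, Good 24 code2 (⊤ : Subgroup Co1) S := good_zipY L_Y (by decide)

theorem not_inv {g : Co1} (hg : g ∈ stabilizer Co1 e0) : g * x * g⁻¹ ≠ x⁻¹ := fun h => by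
  obtain ⟨-, -, j, -, e⟩ := exists_part hg (h.trans (map_inv px _).symm)
  have k := Mathieu.mk_rep (c := 53757873578662062120005588343768800) (by decide +kernel)
  have t := (Mathieu.cls24.rep (15844747036600220001708861812804673, 42) (by decide +kernel)).2
  have e1 := ((k.mulT (rep.powT 6)).eq_iff (Mathieu.R.mulT t k)).2 (by decide +kernel)
  have e2 := pow_orderOf_eq_one (Mathieu.mk r)
  rw [ordM, pow_succ] at e2
  rw [eq_inv_of_mul_eq_one_left e2, ← e] at e1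
  exact absurd (Mathieu.cls24.eq_of_mem_cl (p := (r, 42)) (q := (15844747036600220001708861812804673, 42)) (by decide +kernel) (by decide +kernel)
    ⟨_ * j, trivial, by rw [← mul_inv_eq_iff_eq_mul.2 e1]; simp only [mul_assoc, mul_inv_rev]; rfl⟩) (by decide)

theorem exists_inv : ∃ h : Co1, ∃ e ∈ signs, h * e * h⁻¹ * x * (h * e * h⁻¹)⁻¹ = x⁻¹ := by
  obtain ⟨h, -, a⟩ := hG H List.mem_cons_self
  obtain ⟨e, b, c, c'⟩ := exists_sgn (m := 3717985) (Golay.mem_CW_of_isCW (by decide +kernel))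
  have d := H_ok
  rw [band_eq_true, forceB_eq, beq_iff, beq_iff] at d
  have i := a.inv code2_lt d.1
  have m := (((a.mul c).mul i).mul hx).mul (((a.mul c').mul i).mul hx)
  rw [d.2] at m
  refine ⟨h, e, b, eq_inv_of_mul_eq_one_left (Eq.trans ?_ ((m.eq_of_ker coded1 ker1 (i.mul a)).trans (inv_mul_cancel h)))⟩
  group

theorem exists_cube : ∃ a : Co1, a * x * a⁻¹ = x ^ 3 := by
  obtain ⟨a, -, h⟩ := hG C (.tail _ (.head _))
  exact ⟨a, mul_inv_eq_iff_eq_mul.2 ((h.mul hx).eq_of_ker coded1 ker1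
    ((by decide +kernel : mmul 24 (mpow 24 X 3) C = mmul 24 C X) ▸ (hx.pow code2_lt 3).mul h))⟩

theorem counts : {v : L2 | x • v = v}.ncard = 2 ^ (2 * 3) ∧ (FT x 64).ncard = 14 :=
  have hG' := fun S h => hG S (.tail _ h)
  have hN : gp1 (C :: L.map Prod.fst) ≤ normalizer (zpowers x : Set Co1) := le_normalizer_of hx (by decide +kernel)
  fix_count (le_FT hx hG' hN o2) (le_FT hx hG' hN o3) (le_ncard_FT hN (e0_mem_FT x_e0) (le_orbit_e0 hG' o4))
    (ncard_fix_le hx fix) rfl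

theorem orbit_le : (orbit (centralizer ({x} : Set Co1)) e0).ncard ≤ 7 := by
  obtain ⟨h, e, b, n⟩ := exists_inv
  generalize h * e * h⁻¹ = a at n
  have := finite_L2
  have c : centralizer {x} ≤ normalizer (zpowers x : Set Co1) := Core.centralizer_zpowers x ▸ centralizer_le_normalizer _
  have m : a ∈ normalizer (zpowers x : Set Co1) := mem_normalizer_fintype (by
    rintro _ ⟨j, rfl⟩
    rw [← conj_zpow, n]
    exact zpow_mem (inv_mem (mem_zpowers x)) j)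
  have s := orbit_subset_FT (le_refl (normalizer (zpowers x : Set Co1))) (e0_mem_FT x_e0)
  have d : Disjoint (orbit (centralizer ({x} : Set Co1)) e0) ((a • ·) '' orbit (centralizer ({x} : Set Co1)) e0) := by
    rw [Set.disjoint_left]
    rintro _ ⟨⟨u, u1⟩, rfl⟩ ⟨_, ⟨⟨w, w1⟩, rfl⟩, f⟩
    refine not_inv (g := u⁻¹ * a * w) (by rw [mem_stabilizer_iff, mul_smul, mul_smul, inv_smul_eq_iff]; exact f) ?_
    calc _ = u⁻¹ * (a * (w * x * w⁻¹) * a⁻¹) * u := by group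
      _ = (u⁻¹ * (x * u))⁻¹ := by rw [mem_centralizer_singleton_iff.1 w1, mul_inv_cancel_right, n]; group
      _ = _ := by rw [← mem_centralizer_singleton_iff.1 u1, inv_mul_cancel_left]
  have := Set.ncard_le_ncard (Set.union_subset (orbit_subset_FT c (e0_mem_FT x_e0))
    (show (a • ·) '' orbit (centralizer ({x} : Set Co1)) e0 ⊆ _ by
    rintro _ ⟨_, ⟨⟨w, w1⟩, rfl⟩, rfl⟩
    exact s ⟨⟨a * w, mul_mem m (c w1)⟩, mul_smul a w e0⟩))
  rw [Set.ncard_union_eq d, Set.ncard_image_of_injective _ (MulAction.injective a), counts.2] at this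
  omega

/-- the underlying matrix -/
abbrev mt (g : Matrix.SpecialLinearGroup (Fin 3) (ZMod 2)) : Matrix (Fin 3) (Fin 3) (ZMod 2) := g

theorem hL : ∀ t ∈ L, Good 3 (code1 3 (finPt 3)) (⊤ : Subgroup (Matrix.SpecialLinearGroup (Fin 3) (ZMod 2))) t.2.1 := by
  simp only [L, List.forall_mem_cons]
  exact ⟨Good.one code1_lt _, ⟨⟨mat1 3 Fin.val 460, by decide +kernel⟩, trivial,
    lrep1 mt (fun _ _ => rfl) (num_fin 3) val_finPt rfl⟩, ⟨⟨mat1 3 Fin.val 169, by decide +kernel⟩, trivial,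
    lrep1 mt (fun _ _ => rfl) (num_fin 3) val_finPt rfl⟩, by simp⟩

theorem cf : Nonempty (CF L2 x 3 (Matrix.SpecialLinearGroup (Fin 3) (ZMod 2))) := by
  have hG' := fun S h => hG S (.tail _ (.tail _ h))
  obtain ⟨h3, -, ⟨F⟩⟩ := cf_of_tab (code' := code1 3 (finPt 3)) hx (code1_inj (num_fin 3)) (coded_one (num_fin 3))
    (tst1' mt (fun _ _ => rfl) (num_fin 3) val_finPt)
    (ker_one mt (fun _ _ => rfl) (num_fin 3) fun _ h => Subtype.ext h) (sur1' (num_fin 3) _ _) tab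
    List.mem_cons_self hL hG' h0 (le_orbit_e0 hG' o1) (by decide) orbit_le (N := 168) (w := 3)
    (low_genL (coded_one (num_fin 3)) (fun _ => exists_code1 (num_fin 3)) (List.forall_mem_map.2 hL) lo_ok) (by
      rw [ord, x, card_cen_stab, ← top_inf_eq (centralizer {Mathieu.mk r}), show Nat.card ↥(⊤ ⊓ centralizer {Mathieu.mk r}) = 42
        from Mathieu.cls24.cent (r, 42) (by decide +kernel)]
      have := card_cen_signs (n := 4) hx cj (by norm_num) (by norm_num)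
      rw [x] at this
      omega) counts.1
  exact ⟨F.congr ((MulEquiv.subgroupCongr (eq_top_of_card_eq _ (by
    rw [h3, GLC.card_SL_eq 2]; simp [Finset.prod_range_succ]))).trans topEquiv)⟩

theorem eq_e0 {v : L2} (hv : v ∈ FT x 64) (h : ∀ e ∈ signs, e • v = v ∨ e • v = e0 + v) : v = e0 := by
  have f := fix
  rw [band_eq_true, beq_iff] at f
  have h1 := congrArg (app 24 · (code2 v)) f.1
  simp only [Nat.xor_eq, app_mmul, app_xor_left, app_idM (code2_lt v), ← hx v, hv.1, Nat.xor_self, app_zero] at h1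
  have h2 := of_allLt fr_ok (app_lt_of f.2 (code2 v))
  simp only [forceB_eq, ← Nat.xor_eq_zero_iff.1 h1.symm, bor_eq_true, band_eq_true, anyL_iff, beq_iff] at h2
  obtain ⟨-, y, rfl, h3⟩ := hv
  rcases h2 with (h2 | h2) | ⟨S, h2, h4, h5⟩ | ⟨a, -, ⟨h2, h4⟩, h5⟩
  · exact absurd (code2_injective (h2.trans (code_zero.symm.trans (code2_mk 0).symm))) (mk_ne_zero (by omega) h3.le)
  · exact code2_injective (h2.trans code2_e0.symm)
  · obtain ⟨p, h6, rfl⟩ := List.mem_map.1 h2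
    obtain ⟨e, a, b, -⟩ := invL_sgnL p h6
    rw [← b] at h4 h5
    rcases h e a with c | c <;> rw [c] at h4 h5
    · exact absurd rfl (Mathieu.ne_of_not_beq h4)
    · exact absurd (by rw [← code2_e0]; exact code_add _ _) (Mathieu.ne_of_not_beq h5)
  · have := nm_eq_of_mk (x := lv a) (y := y) (by rw [coe_lv h2, sqNorm_eq_dot, dotV_iff.1 h4]; norm_num) h3.le
      (code2_injective ((code_lv h2).trans h5))
    rw [coe_lv h2, sqNorm_eq_dot, dotV_iff.1 h4, h3] at this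
    norm_num at this

variable {G : Type*} [Group G] [Finite G] {z : G} {Q : Subgroup G} (D : XD z Q Co1 L2)

omit [Finite G] in
theorem ncard_pre [Finite Q] (T : Set L2) : {q | q ∈ Q ∧ D.π q ∈ T}.ncard = 2 * T.ncard := by
  have := finite_L2
  choose s s1 s2 using D.π_surj
  have i : Function.Injective s := fun a b h => by rw [← s2 a, h, s2]
  have e : {q | q ∈ Q ∧ D.π q ∈ T} = s '' T ∪ (fun v => z * s v) '' T := by
    ext q
    constructor
    · rintro ⟨a, b⟩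
      exact ((D.π_eq_iff (s1 _) a).1 (s2 _)).imp (⟨_, b, ·.symm⟩) (⟨_, b, ·.symm⟩)
    · rintro (⟨v, a, rfl⟩ | ⟨v, a, rfl⟩)
      · exact ⟨s1 v, (s2 v).symm ▸ a⟩
      · exact ⟨Q.mul_mem D.lg.mem (s1 v), by rwa [D.π_z_mul (s1 v), s2]⟩
  rw [e, Set.ncard_union_eq (Set.disjoint_left.2 (by
    rintro _ ⟨v, -, rfl⟩ ⟨w, -, f⟩
    have := congrArg D.π f
    rw [D.π_z_mul (s1 w), s2, s2] at this
    exact D.lg.ne_one (mul_eq_right.1 (this ▸ f)))), Set.ncard_image_of_injective _ i,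
    Set.ncard_image_of_injective _ fun a b h => i (mul_left_cancel h), two_mul]

variable (hc : Nat.card Q = 2 ^ (2 * 12 + 1))
include D hc

theorem exists_setup {s : G} (hs : s ∈ Q) (h : IsConj z s) (hne : s ≠ z) {B : Subgroup G} (hB : B ≤ centralizer {z, s})
    (h7 : Nat.card B = 7) : ∃ D : XD z Q Co1 L2, D.π s = e0 ∧
      ∃ b : centralizer ({z} : Set G), B = zpowers (b : G) ∧ orderOf (b : G) = 7 ∧ D.ρ b = x :=
  have : Fact (Nat.Prime 7) := ⟨by norm_num⟩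
  let ⟨D, h1⟩ := exists_base D hc hs h hne
  exists_twist' D hs h1 hB h7 (by norm_num) x_e0 ord (by norm_num)

theorem mem_FT_iff {g : G} (hg : g * z * g⁻¹ ∈ Q) (hne : g * z * g⁻¹ ≠ z) {b : centralizer ({z} : Set G)}
    (ho : orderOf (b : G) = 7) (hb : D.ρ b = x) {q : G} (hq : q ∈ Q) :
    D.π q ∈ FT x 64 ↔ b * q = q * b ∧ IsConj z q ∧ q ≠ z := by
  constructor
  · rintro ⟨h1, y, h2, h3⟩
    exact ⟨D.comm_of_fix (by rw [ho]; decide) hq (hb ▸ h1), isConj_of_nm D hc hg hne hq h2.symm h3, fun e =>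
      mk_ne_zero (by omega) h3.le (by rw [h2, e, D.π_z])⟩
  · rintro ⟨h1, h2, h3⟩
    obtain ⟨y, h4, h5⟩ := nm_of_isConj D hc hq h2 h3
    exact ⟨hb ▸ D.fix_of_comm hq h1, y, h4.symm, h5⟩

theorem count {g : G} (hg : g * z * g⁻¹ ∈ Q) (hne : g * z * g⁻¹ ≠ z) {b : centralizer ({z} : Set G)}
    (ho : orderOf (b : G) = 7) (hb : D.ρ b = x) : {q | q ∈ Q ∧ b * q = q * b ∧ IsConj z q}.ncard = 29 := by
  have := ncard_pre D (FT x 64)
  rw [counts.2, show {q | q ∈ Q ∧ D.π q ∈ FT x 64} = {q | q ∈ Q ∧ b * q = q * b ∧ IsConj z q} \ {z} from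
    Set.ext fun q => by
      rw [Set.mem_ofPred_eq, Set.mem_sdiff, Set.mem_ofPred_eq, and_assoc, and_assoc]
      exact and_congr_right fun hq => mem_FT_iff D hc hg hne ho hb hq] at this
  rw [← Set.ncard_sdiff_singleton_add_one (a := z) (by
    exact ⟨D.lg.mem, mem_centralizer_singleton_iff.1 b.2, IsConj.refl z⟩), this]

theorem three {B : Subgroup G} (h7 : Nat.card B = 7) {g y : G} (hg : g * z * g⁻¹ ∈ Q) (hne : g * z * g⁻¹ ≠ z)
    (hB : B ≤ centralizer {z, g * z * g⁻¹}) (hy : y ∈ Q) (hy' : g⁻¹ * y * g ∈ Q) (hyB : y ∈ centralizer (B : Set G))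
    (h : IsConj z y) : y = z ∨ y = g * z * g⁻¹ ∨ y = z * (g * z * g⁻¹) := by
  obtain ⟨D, h1, b, rfl, h2, h3⟩ := exists_setup D hc hg (isConj_iff.2 ⟨g, rfl⟩) hne hB h7
  refine or_iff_not_imp_left.2 fun h4 => (D.π_eq_iff hg hy).1 (h1.trans (eq_e0 ((mem_FT_iff D hc hg hne h2 h3 hy).2
    ⟨hyB _ (mem_zpowers _), h, h4⟩) fun e he => ?_).symm)
  rw [← img_eq_signs D hc hg h1] at he
  obtain ⟨a, ha, rfl⟩ := he
  rw [← D.π_conj a y hy, ← h1, ← D.π_mul _ hg _ hy]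
  exact ((D.lg.conj g).conj_eq_or ha.1 (Core.mem_map_conj.2 hy')).imp (congrArg _) (congrArg _)

theorem section_he {s : G} (hs : s ∈ Q) (h : IsConj z s) (hne : s ≠ z) {B : Subgroup G} (hB : B ≤ centralizer {z, s})
    (h7 : Nat.card B = 7) [hn : (B.subgroupOf (centralizer (B : Set G))).Normal] :
    ∃ (y : centralizer (B : Set G) ⧸ B.subgroupOf (centralizer (B : Set G)))
      (R : Subgroup (centralizer ({y} : Set (centralizer (B : Set G) ⧸ B.subgroupOf (centralizer (B : Set G))))))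
      (_ : R.Normal), IsExtraspecialCentralizerSetting y R 3 ∧
      Nonempty (_ ⧸ R ≃* Matrix.SpecialLinearGroup (Fin 3) (ZMod 2)) ∧
      {x | x ∈ R.map (Subgroup.subtype _) ∧ IsConj y x}.ncard = 29 ∧
      ∀ g u, g * y * g⁻¹ ∈ R.map (Subgroup.subtype _) → g * y * g⁻¹ ≠ y → u ∈ R.map (Subgroup.subtype _) →
        g⁻¹ * u * g ∈ R.map (Subgroup.subtype _) → IsConj y u → u = y ∨ u = g * y * g⁻¹ ∨ u = y * (g * y * g⁻¹) := by
  obtain ⟨D, h1, b, h2, h3, h4⟩ := exists_setup D hc hs h hne hB h7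
  obtain ⟨F⟩ := cf
  rw [centralizer_pair] at hB
  have ho : Odd (orderOf (b : G)) := by rw [h3]; decide
  obtain ⟨hz, R, hR, a1, a2, a3⟩ := D.odd_section h2 ho (h4 ▸ F) hs h hne
    fun y hy => mem_centralizer_singleton_iff.1 (hB hy).2
  have k1 : ∀ {x}, x ∈ B → x ∈ Q → x = 1 := fun {x} hx hq =>
    let ⟨_, hk⟩ := D.lg.isPGroup ⟨x, hq⟩
    eq_one_of_two_of_odd (h2 ▸ hx) ho (congrArg Subtype.val hk)
  have k2 : ∀ k : centralizer (B : Set G), QuotientGroup.mk' (B.subgroupOf _) (k * ⟨z, hz⟩ * k⁻¹) ∈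
      R.map (Subgroup.subtype _) → (k : G) * z * (k : G)⁻¹ ∈ Q := fun k hk => by
    obtain ⟨q, a, e⟩ := a2.le hk
    have c : (q : G)⁻¹ * (k * z * (k : G)⁻¹) ∈ B := mem_subgroupOf.1 (QuotientGroup.eq.1 e)
    have d := (D.lg.conj k).mul_self
    generalize (k : G) * z * (k : G)⁻¹ = u at c d
    obtain ⟨w, rfl⟩ : ∃ w, u = q * w := ⟨_, (mul_inv_cancel_left _ _).symm⟩
    rw [inv_mul_cancel_left] at c
    rw [mul_assoc, ← mul_assoc w, q.2 w c, mul_assoc, ← mul_assoc] at d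
    rw [eq_one_of_two_of_odd (k := 1) (h2 ▸ c) ho ((sq w).trans (k1 (mul_mem c c)
      (eq_inv_of_mul_eq_one_right d ▸ inv_mem (mul_mem a a)))), mul_one]
    exact a
  obtain ⟨g, rfl⟩ := isConj_iff.1 h
  refine ⟨_, R, hR, a1, a3, ?_, fun g u => ?_⟩
  · rw [← count D hc hs hne h3 h4, show {x | x ∈ R.map (Subgroup.subtype _) ∧ IsConj _ x} =
      QuotientGroup.mk' (B.subgroupOf _) '' {q | (q : G) ∈ Q ∧ IsConj z (q : G)} from ?_, Set.InjOn.ncard_image ?_,
      ← Set.ncard_image_of_injective _ Subtype.val_injective]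
    · congr 1
      ext q
      exact ⟨by rintro ⟨q, a, rfl⟩; exact ⟨a.1, q.2 _ (h2 ▸ mem_zpowers _), a.2⟩, fun a => ⟨⟨q, by
        rw [h2, Core.centralizer_zpowers]; exact mem_centralizer_singleton_iff.2 a.2.1.symm⟩, ⟨a.1, a.2.2⟩, rfl⟩⟩
    · exact fun p a q c e => Subtype.ext (eq_of_inv_mul_eq_one (k1 (mem_subgroupOf.1 (QuotientGroup.eq.1 e))
        (mul_mem (inv_mem a.1) c.1)))
    · ext u
      constructor
      · rintro ⟨a, c⟩
        obtain ⟨k, rfl⟩ := isConj_iff.1 c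
        obtain ⟨k, rfl⟩ := QuotientGroup.mk'_surjective _ k
        exact ⟨k * ⟨z, hz⟩ * k⁻¹, ⟨k2 k a, isConj_iff.2 ⟨k, rfl⟩⟩, rfl⟩
      · rintro ⟨q, a, rfl⟩
        obtain ⟨k, c, e⟩ := D.exists_conj_odd (hB.trans inf_le_left) (by rw [h7]; decide) a.1 a.2 q.2
        exact ⟨a2.ge ⟨q, a.1, rfl⟩, MonoidHom.map_isConj _ (isConj_iff.2 ⟨⟨k, c⟩, Subtype.ext e⟩)⟩
  · intro c1 c2 c3 c4 c5
    obtain ⟨k, rfl⟩ := isConj_iff.1 c5
    obtain ⟨k, rfl⟩ := QuotientGroup.mk'_surjective _ k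
    obtain ⟨g, rfl⟩ := QuotientGroup.mk'_surjective _ g
    have := three D hc h7 (k2 g c1) (fun e => c2 (congrArg (QuotientGroup.mk' _) (Subtype.ext e :
      g * ⟨z, hz⟩ * g⁻¹ = ⟨z, hz⟩))) (by
        rw [centralizer_pair]
        exact le_inf (hB.trans inf_le_left) fun w hw => mem_centralizer_singleton_iff.2 ((g * ⟨z, hz⟩ * g⁻¹).2 w hw))
      (k2 k c3) (by simpa [mul_assoc] using k2 (g⁻¹ * k) (by simpa [mul_assoc] using c4)) (k * ⟨z, hz⟩ * k⁻¹).2
      (isConj_iff.2 ⟨k, rfl⟩)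
    exact this.imp (fun e => congrArg (QuotientGroup.mk' _) (Subtype.ext e : k * ⟨z, hz⟩ * k⁻¹ = ⟨z, hz⟩))
      (.imp (fun e => congrArg (QuotientGroup.mk' _) (Subtype.ext e : k * ⟨z, hz⟩ * k⁻¹ = g * ⟨z, hz⟩ * g⁻¹))
      fun e => congrArg (QuotientGroup.mk' _) (Subtype.ext e : k * ⟨z, hz⟩ * k⁻¹ = ⟨z, hz⟩ * (g * ⟨z, hz⟩ * g⁻¹)))

omit hc in
theorem exists_adjust {b y : centralizer ({z} : Set G)} (ho : orderOf b = 7) (hy : y ^ 7 = 1)
    (h : D.ρ y ∈ zpowers (D.ρ b)) : ∃ q, D.ρ q ∈ zpowers (D.ρ b) ∧ q * y * q⁻¹ ∈ zpowers b := by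
  have : Fact (Nat.Prime 7) := ⟨by norm_num⟩
  have e : (zpowers (D.ρ b)).comap D.ρ = zpowers b ⊔ D.ρ.ker := by rw [← MonoidHom.map_zpowers, comap_map_eq]
  obtain ⟨k, hk⟩ := (D.ker_eq ▸ D.lg.isPGroup.comap_of_injective _
    (centralizer ({z} : Set G)).subtype_injective : IsPGroup 2 D.ρ.ker).exists_card_eq
  obtain ⟨q, a, c⟩ := T2.exists_conj_le_of_not_dvd (p := 7) (H := zpowers b) (K := (zpowers (D.ρ b)).comap D.ρ)
    (R := zpowers y) (fun d => by
      have h1 := Core.card_sup_mul_card_inf (H := zpowers b) (N := D.ρ.ker) (by rw [normalizer_eq_top]; exact le_top)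
      rw [← T2.relIndex_mul_card (le_sup_left : zpowers b ≤ _), ← e, mul_right_comm, mul_comm (Nat.card _), hk] at h1
      exact absurd ((Nat.Prime.dvd_of_dvd_pow (by norm_num)
        (Nat.eq_of_mul_eq_mul_right Nat.card_pos h1 ▸ d.mul_right _))) (by norm_num))
    (fun g => ⟨1, Subtype.ext (by
      obtain ⟨_, j, rfl⟩ := g
      change (y ^ j) ^ 7 ^ 1 = 1
      rw [pow_one, ← zpow_natCast, ← zpow_mul, mul_comm, zpow_mul, zpow_natCast, hy, one_zpow])⟩)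
    ((zpowers_le (G := centralizer ({z} : Set G))).2 h)
  exact ⟨q, a, c y (mem_zpowers y)⟩

theorem exists_lift_sign {g : G} (hg : g * z * g⁻¹ ∈ Q) (hne : g * z * g⁻¹ ≠ z) (h1 : D.π (g * z * g⁻¹) = e0)
    {e : Co1} (he : e ∈ signs) : ∃ a, D.ρ a = e ∧ a * a = 1 := by
  rw [← img_eq_signs D hc hg h1] at he
  obtain ⟨a, ha, rfl⟩ := he
  have P := D.lg.pr hg hne
  have c := card_inf_conj D hc hg hne
  have c' : Nat.card (Q.map (MulAut.conj g).toMonoidHom) = 2 ^ (2 * 12 + 1) := (Core.card_map_conj _ _).trans hc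
  have es := isExtraspecial_conj D.es g
  generalize Q.map (MulAut.conj g).toMonoidHom = R at *
  generalize g * z * g⁻¹ = s at *
  by_cases h : ∀ t ∈ Q ⊓ R, (a : G) * t = t * a
  · refine ⟨a, rfl, Subtype.ext ((sq _).symm.trans (P.sq_eq_one ?_))⟩
    have l : Q ⊓ R ⊔ zpowers (a : G) ≤ R := sup_le inf_le_right ((zpowers_le (G := G)).2 ha.1)
    have := card_le_of_isMulCommutative es c' (A := (Q ⊓ R ⊔ zpowers (a : G)).subgroupOf R) ⟨⟨fun u w => by
      refine Subtype.ext (Subtype.ext (mem_centralizer_singleton_iff.1 (sup_le (fun v hv => ?_)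
        ((zpowers_le (G := G)).2 ?_) u.2))) <;> refine mem_centralizer_singleton_iff.2
          (mem_centralizer_singleton_iff.1 (sup_le (fun y hy => ?_) ((zpowers_le (G := G)).2 ?_) w.2)).symm <;>
        rw [mem_centralizer_singleton_iff]
      exacts [((Commute.of_orderOf_dvd_two (G := ↥(Q ⊓ R)) (fun x => orderOf_dvd_of_pow_eq_one
        (Subtype.ext (P.sq_eq_one x.2))) ⟨y, hy⟩ ⟨v, hv⟩).map (Q ⊓ R).subtype).eq, h v hv, (h y hy).symm]⟩⟩
    rw [Nat.card_congr (subgroupOfEquivOfLe l).toEquiv, ← c] at this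
    exact (eq_of_le_of_card_ge le_sup_left this).ge (mem_sup_right (mem_zpowers _))
  · push Not at h
    obtain ⟨t, ht, h⟩ := h
    rcases P.r.mem_iff.1 (P.r.sq_mem _ ha.1) with f | f
    · exact ⟨a, rfl, Subtype.ext ((sq _).symm.trans f)⟩
    · refine ⟨a * ⟨t, D.lg.cent ht.1⟩, by rw [map_mul, (D.ker ⟨t, _⟩).2 ht.1, mul_one], Subtype.ext ?_⟩
      have k : a * t * (a : G)⁻¹ = s * t := (P.r.conj_eq_or ha.1 ht.2).resolve_left fun e => h (mul_inv_eq_iff_eq_mul.1 e)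
      calc (a : G) * t * (a * t) = a * t * (a : G)⁻¹ * a ^ 2 * t := by rw [sq]; group
        _ = s * (t * s) * t := by rw [k, show (a : G) ^ 2 = s from f]; group
        _ = 1 := by rw [P.r.comm ht.2, ← mul_assoc, P.r.mul_self, one_mul, ← sq, P.sq_eq_one ht]

theorem exists_inverter {g : G} (hg : g * z * g⁻¹ ∈ Q) (hne : g * z * g⁻¹ ≠ z) (h1 : D.π (g * z * g⁻¹) = e0)
    {b : centralizer ({z} : Set G)} (ho : orderOf b = 7) (hb : D.ρ b = x) : ∃ t, t * t = 1 ∧ t * b * t⁻¹ = b⁻¹ := by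
  obtain ⟨h, e, he, n⟩ := exists_inv
  obtain ⟨a, rfl, a2⟩ := exists_lift_sign D hc hg hne h1 he
  obtain ⟨h, rfl⟩ := D.surj h
  rw [← map_inv, ← map_mul, ← map_mul] at n
  have t2 : h * a * h⁻¹ * (h * a * h⁻¹) = 1 := by rw [conj_mul, a2, mul_one, mul_inv_cancel]
  generalize h * a * h⁻¹ = t at n t2
  have : Fact (Nat.Prime 7) := ⟨by norm_num⟩
  have x7 : x ^ 7 = 1 := ord ▸ pow_orderOf_eq_one x
  have r : D.ρ (t * b * t⁻¹ * b⁻¹) = x⁻¹ ^ 2 := by rw [map_mul, map_mul, map_mul, map_inv, map_inv, hb, n, sq]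
  have i : t * (t * b * t⁻¹ * b⁻¹) * t⁻¹ = (t * b * t⁻¹ * b⁻¹)⁻¹ := by
    rw [mul_inv_rev, mul_inv_rev, mul_inv_rev, inv_inv, inv_inv, inv_eq_of_mul_eq_one_right t2, ← mul_assoc, ← mul_assoc,
      ← mul_assoc, t2]; group
  generalize t * b * t⁻¹ * b⁻¹ = y at r i
  have y7 : ((y ^ 7 : centralizer ({z} : Set G)) : G) ∈ Q := (D.ker _).1 (by
    rw [map_pow, r, ← pow_mul, mul_comm, pow_mul, inv_pow, x7, inv_one, one_pow])
  have w7 : (y ^ 8) ^ 7 = 1 := Subtype.ext (by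
    change ((y : G) ^ 8) ^ 7 = 1
    rw [← pow_mul, show 8 * 7 = 7 * 2 * 2 * 2 from rfl, pow_mul, pow_mul, pow_mul]
    rcases D.lg.mem_iff.1 (D.lg.sq_mem _ y7) with f | f <;> rw [show ((y : G) ^ 7) ^ 2 = _ from f]
    · simp
    · rw [sq z, D.lg.mul_self, one_pow])
  have r8 : D.ρ (y ^ 8) = x⁻¹ ^ 2 := by
    rw [map_pow, r, pow_succ, ← pow_mul, mul_comm 2, pow_mul, inv_pow x 7, x7, inv_one, one_pow, one_mul]
  obtain ⟨q, -, c⟩ := exists_adjust D ho w7 (by rw [r8, hb]; exact pow_mem (inv_mem (mem_zpowers x)) 2)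
  obtain ⟨k, d⟩ := (eq_of_le_of_card_ge ((zpowers_le (G := centralizer ({z} : Set G))).2 c) (by
    rw [Nat.card_zpowers, Nat.card_zpowers, ho, orderOf_conj_eq, orderOf_eq_prime w7 fun f => ?_]
    rw [f, map_one, inv_pow, eq_comm, inv_eq_one] at r8
    exact absurd (ord ▸ orderOf_dvd_of_pow_eq_one r8) (by norm_num))).ge (mem_zpowers b)
  refine ⟨q * t * q⁻¹, by rw [conj_mul, t2, mul_one, mul_inv_cancel], ?_⟩
  rw [← d, ← zpow_neg, zpow_neg, ← inv_zpow, ← conj_zpow, conj_inv (a := y ^ 8) (b := q), ← inv_pow, ← i, conj_pow]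
  congr 1
  group

omit hc in
theorem exists_cuber {b : centralizer ({z} : Set G)} (ho : orderOf b = 7) (hb : D.ρ b = x) :
    ∃ n, n * b * n⁻¹ = b ^ 3 := by
  obtain ⟨a, h⟩ := exists_cube
  obtain ⟨a, rfl⟩ := D.surj a
  rw [← hb, ← map_inv, ← map_mul, ← map_mul] at h
  obtain ⟨q, ⟨j, c⟩, k, d⟩ := exists_adjust D ho (y := a * b * a⁻¹)
    (by rw [conj_pow, ← ho, pow_orderOf_eq_one, mul_one, mul_inv_cancel]) (h ▸ pow_mem (mem_zpowers _) 3)
  have e := congrArg D.ρ d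
  rw [map_zpow, map_mul, map_mul, h, map_inv, ← c, ← zpow_natCast, ← zpow_add, ← zpow_sub, add_sub_cancel_left,
    zpow_eq_zpow_iff_modEq, hb, ord, ← ho, ← zpow_eq_zpow_iff_modEq, zpow_natCast] at e
  exact ⟨q * a, by rw [← e, show b ^ k = _ from d]; group⟩

end Cfsg.Lib.Mon.He
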